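import Mathlib
import Cfsg.Agent.Lib.Helper49.HUP.Defs

/-!
# HUP (S3361), package [ODDQ]

A normal subgroup `O` of odd order of maximal cardinality: `G ⧸ O` has no non-trivial normal
subgroup of odd order.
-/

set_option autoImplicit false

namespace Cfsg.Agent.Lib.Helper92.HUP

open Cfsg.Agent.Lib.Helper49.HUP

universe u v

/-- **[ODDQ]** -/
theorem pkgOddQ : PkgOddQ.{v} := by
  intro G _ _
  classical
  haveI : Nonempty {O : Subgroup G // O.Normal ∧ Odd (Nat.card O)} :=
    ⟨⟨⊥, inferInstance, by simp⟩⟩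
  obtain ⟨⟨O, hOn, hOodd⟩, hmax⟩ :=
    Finite.exists_max (fun O : {O : Subgroup G // O.Normal ∧ Odd (Nat.card O)} => Nat.card O.1)
  refine ⟨O, hOn, hOodd, ?_⟩
  intro N' hN' hodd'
  have := hOn
  have hNn : (N'.comap (QuotientGroup.mk' O)).Normal := hN'.comap _
  have hidx : (N'.comap (QuotientGroup.mk' O)).index = N'.index :=
    Subgroup.index_comap_of_surjective N' (QuotientGroup.mk'_surjective O)
  have h1 := Subgroup.card_mul_index (N'.comap (QuotientGroup.mk' O))
  have h2 := Subgroup.card_mul_index N'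
  have h3 := Subgroup.card_eq_card_quotient_mul_card_subgroup O
  have hidx0 : N'.index ≠ 0 := Subgroup.index_ne_zero_of_finite
  have hcard : Nat.card (N'.comap (QuotientGroup.mk' O)) = Nat.card N' * Nat.card O := by
    have h4 : Nat.card (N'.comap (QuotientGroup.mk' O)) * N'.index =
        Nat.card N' * Nat.card O * N'.index := by
      rw [← hidx, h1, h3, ← h2, hidx]
      ring
    exact Nat.eq_of_mul_eq_mul_right (Nat.pos_of_ne_zero hidx0) h4
  have hoddN : Odd (Nat.card (N'.comap (QuotientGroup.mk' O))) := by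
    rw [hcard]
    exact hodd'.mul hOodd
  have hle : Nat.card (N'.comap (QuotientGroup.mk' O)) ≤ Nat.card O :=
    hmax ⟨N'.comap (QuotientGroup.mk' O), hNn, hoddN⟩
  have hOpos : 0 < Nat.card O := Nat.card_pos
  apply Subgroup.eq_bot_of_card_le
  rw [hcard] at hle
  exact Nat.le_of_mul_le_mul_right (by rw [one_mul]; exact hle) hOpos

end Cfsg.Agent.Lib.Helper92.HUP
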