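import Mathlib
import Cfsg.Agent.Lib.Helper49.HUP.Defs

/-!
# HUP (S3361), package [SPLIT5]

`|G| = 120`, `O` normal of order `5`, `G ⧸ O ≃* SL(2,3)`: the image of `G` in `Aut O` (order `4`)
is either non-trivial, giving a normal subgroup of index `2`, or trivial; then `O` is central
and Schur–Zassenhaus splits `G = H × O`.
-/

set_option autoImplicit false

namespace Cfsg.Agent.Lib.Helper92.HUP

open Cfsg.Agent.Lib.Helper49.HUP

universe u v

/-- **[SPLIT5]** -/
theorem pkgSplit5 : PkgSplit5.{v} := by
  intro G _ _ hG O _ hO ⟨eS⟩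
  classical
  haveI : Fact (Nat.Prime 5) := ⟨by norm_num⟩
  haveI : Fact (Nat.Prime 2) := ⟨Nat.prime_two⟩
  haveI hOc : IsCyclic O := isCyclic_of_prime_card hO
  have hAut : Nat.card (MulAut O) = 4 := by
    rw [IsCyclic.card_mulAut, hO]
    decide
  have hdvd : Nat.card (MulAut.conjNormal : G →* MulAut O).range ∣ 4 :=
    hAut ▸ Subgroup.card_subgroup_dvd_card (MulAut.conjNormal : G →* MulAut O).range
  by_cases hR : Nat.card (MulAut.conjNormal : G →* MulAut O).range = 1
  · right
    have hcent : ∀ (g : G) (o : G), o ∈ O → g * o = o * g := by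
      intro g o ho
      have h1 : (MulAut.conjNormal : G →* MulAut O) g = 1 := by
        haveI := (Nat.card_eq_one_iff_unique.1 hR).1
        have h0 : (⟨(MulAut.conjNormal : G →* MulAut O) g, g, rfl⟩ :
            (MulAut.conjNormal : G →* MulAut O).range) = 1 := Subsingleton.elim _ _
        exact congrArg Subtype.val h0
      have h2 : (((MulAut.conjNormal : G →* MulAut O) g ⟨o, ho⟩ : O) : G) = o := by
        rw [h1]
        rfl
      rw [MulAut.conjNormal_apply] at h2
      calc g * o = g * o * g⁻¹ * g := by group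
        _ = o * g := by rw [h2]
    have hidx : O.index = 24 := by
      have h3 := Subgroup.card_mul_index O
      rw [hO, hG] at h3
      omega
    obtain ⟨H, hH⟩ := Subgroup.exists_left_complement'_of_coprime (N := O) (by
      rw [hO, hidx]
      decide)
    let f : H × O →* G :=
      { toFun := fun x => x.1.1 * x.2.1
        map_one' := by simp
        map_mul' := by
          intro x y
          simp only [Prod.fst_mul, Prod.snd_mul, Subgroup.coe_mul]
          have h4 := hcent y.1.1 x.2.1 x.2.2
          calc x.1.1 * y.1.1 * (x.2.1 * y.2.1) = x.1.1 * (y.1.1 * x.2.1) * y.2.1 := by group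
            _ = x.1.1 * (x.2.1 * y.1.1) * y.2.1 := by rw [h4]
            _ = x.1.1 * x.2.1 * (y.1.1 * y.2.1) := by group }
    have hbij : Function.Bijective f := hH
    have e3 : Nonempty (O ≃* Multiplicative (ZMod 5)) :=
      ⟨mulEquivOfPrimeCardEq (p := 5) hO (by simp)⟩
    obtain ⟨e3⟩ := e3
    exact ⟨(MulEquiv.ofBijective f hbij).symm.trans
      (MulEquiv.prodCongr (hH.QuotientMulEquiv.symm.trans eS) e3)⟩
  · left
    have hdvd' : Nat.card (MulAut.conjNormal : G →* MulAut O).range ∣ 2 ^ 2 := by
      rw [show (2 : ℕ) ^ 2 = 4 by norm_num]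
      exact hdvd
    obtain ⟨m, hm, hcard⟩ := (Nat.dvd_prime_pow Nat.prime_two).1 hdvd'
    obtain ⟨k, rfl⟩ : ∃ k, m = k + 1 := by
      cases m with
      | zero => exact absurd (by rw [hcard, pow_zero]) hR
      | succ k => exact ⟨k, rfl⟩
    obtain ⟨K, hK⟩ := Sylow.exists_subgroup_card_pow_prime 2
      (G := (MulAut.conjNormal : G →* MulAut O).range) (n := k)
      (by rw [hcard]; exact pow_dvd_pow 2 (Nat.le_succ k))
    have hKidx : K.index = 2 := by
      have h5 := Subgroup.card_mul_index K
      rw [hK, hcard, pow_succ] at h5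
      exact Nat.eq_of_mul_eq_mul_left (pow_pos (by norm_num) k) h5
    have hidx2 : (K.comap (MulAut.conjNormal : G →* MulAut O).rangeRestrict).index = 2 := by
      rw [Subgroup.index_comap_of_surjective K
        (MulAut.conjNormal : G →* MulAut O).rangeRestrict_surjective]
      exact hKidx
    exact ⟨K.comap (MulAut.conjNormal : G →* MulAut O).rangeRestrict,
      Subgroup.normal_of_index_eq_two hidx2, hidx2⟩

end Cfsg.Agent.Lib.Helper92.HUP
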