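import Mathlib
import Cfsg.Agent.Lib.Helper49.HUP.Defs

/-!
# HUP (S3361), package [SYLQ]

For `O` normal of odd order, a Sylow `2`-subgroup `P` of `G` maps isomorphically onto a Sylow
`2`-subgroup of `G ⧸ O`.
-/

set_option autoImplicit false

namespace Cfsg.Agent.Lib.Helper92.HUP

open Cfsg.Agent.Lib.Helper49.HUP

universe u v

/-- **[SYLQ]** -/
theorem pkgSylQ : PkgSylQ.{v} := by
  intro G _ _ O _ hodd P
  have hsurj : Function.Surjective (QuotientGroup.mk' O) := QuotientGroup.mk'_surjective O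
  refine ⟨P.mapSurjective hsurj, ?_⟩
  have hcop : Nat.Coprime (Nat.card (P : Subgroup G)) (Nat.card O) := by
    rw [P.card_eq_multiplicity]
    exact Nat.Coprime.pow_left _ (Nat.coprime_two_left.2 hodd)
  have hinf : (P : Subgroup G) ⊓ O = ⊥ :=
    disjoint_iff.mp (Subgroup.disjoint_of_coprime_natCard hcop)
  have hinj : Function.Injective ((QuotientGroup.mk' O).comp (P : Subgroup G).subtype) := by
    rw [injective_iff_map_eq_one]
    intro x hx
    have hxO : (x : G) ∈ O := by
      exact (QuotientGroup.eq_one_iff _).1 hx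
    have hx2 : (x : G) ∈ (P : Subgroup G) ⊓ O := ⟨x.2, hxO⟩
    rw [hinf, Subgroup.mem_bot] at hx2
    exact Subtype.ext hx2
  have hrange : ((QuotientGroup.mk' O).comp (P : Subgroup G).subtype).range =
      ((P.mapSurjective hsurj : Sylow 2 (G ⧸ O)) : Subgroup (G ⧸ O)) := by
    rw [Sylow.coe_mapSurjective, MonoidHom.range_comp, Subgroup.range_subtype]
  exact ⟨(MonoidHom.ofInjective hinj).trans (MulEquiv.subgroupCongr hrange)⟩

end Cfsg.Agent.Lib.Helper92.HUP
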